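import Mathlib

/-!
Vaughan-Lee's breadth theorem for finite p-groups.

The induction runs over two statements.
`BrP c`: a p-subgroup in which all elements outside some proper subgroup have breadth at most `c`
has derived subgroup of order at most `p ^ T c`.
`BrQ c`: if in addition the elements outside two distinct maximal subgroups have breadth at most `c`,
and those outside the first one breadth at most `c + 1`, the order is at most `p ^ (T c + 1)`.
-/

set_option autoImplicit false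
set_option linter.unusedSectionVars false
set_option linter.style.haveILetI false

namespace Cfsg.Agent.KnownB.Breadth

open scoped commutatorElement

variable {G : Type*} [Group G] [Finite G] {p : ℕ} [Fact p.Prime]

noncomputable def br (H : Subgroup G) (x : G) : ℕ :=
  (Subgroup.centralizer ({x} : Set G)).relIndex H

def tri : ℕ → ℕ
  | 0 => 0
  | n + 1 => tri n + (n + 1)

theorem tri_eq (n : ℕ) : tri n = n * (n + 1) / 2 := by
  have h : ∀ m, 2 * tri m = m * (m + 1) := by
    intro m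
    induction m with
    | zero => simp [tri]
    | succ k ih => simp only [tri]; ring_nf at ih ⊢; omega
  have := h n
  omega

/-- `U` is a normal subgroup of index `p` in `H`. -/
structure Idx (p : ℕ) (H U : Subgroup G) : Prop where
  le : U ≤ H
  normal : (U.subgroupOf H).Normal
  index : U.relIndex H = p

theorem exists_idx_ge (hG : IsPGroup p G) {H L : Subgroup G} (hL : L ≤ H) (hne : L ≠ H) :
    ∃ U : Subgroup G, Idx p H U ∧ L ≤ U := by
  have hp : p.Prime := Fact.out
  have hH : IsPGroup p H := hG.to_subgroup H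
  obtain ⟨n, hn⟩ := hH.exists_card_eq
  obtain ⟨m, hm⟩ := (hG.to_subgroup L).exists_card_eq
  have hc : Nat.card (L.subgroupOf H) = p ^ m := by
    rw [← hm]; exact Nat.card_congr (Subgroup.subgroupOfEquivOfLe hL).toEquiv
  have hmn : m < n := by
    rcases lt_or_ge m n with h | h
    · exact h
    · exfalso
      refine hne (Subgroup.eq_of_le_of_card_ge hL ?_)
      rw [hm, hn]
      exact Nat.pow_le_pow_right hp.pos h
  obtain ⟨K, hK, hLK⟩ := Sylow.exists_subgroup_card_pow_prime_le (p := p)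
    (show p ^ (n - 1) ∣ Nat.card H from hn ▸ pow_dvd_pow p (Nat.sub_le n 1))
    (L.subgroupOf H) hc (Nat.le_sub_one_of_lt hmn)
  have hidx : K.index = p := by
    have h1 := K.card_mul_index
    rw [hK, hn] at h1
    have hn1 : n = n - 1 + 1 := by omega
    rw [hn1, pow_succ, Nat.add_sub_cancel] at h1
    exact Nat.eq_of_mul_eq_mul_left (pow_pos hp.pos _) h1
  have hnorm : K.Normal := by
    apply Subgroup.normal_of_index_eq_minFac_card
    rw [hidx, hn, Nat.pow_minFac (by omega), hp.minFac_eq]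
  refine ⟨K.map H.subtype, ⟨Subgroup.map_subtype_le K, ?_, ?_⟩, ?_⟩
  · rw [Subgroup.subgroupOf, Subgroup.comap_map_eq_self_of_injective H.subtype_injective]
    exact hnorm
  · rw [Subgroup.relIndex, Subgroup.subgroupOf,
      Subgroup.comap_map_eq_self_of_injective H.subtype_injective, hidx]
  · intro x hx
    exact ⟨⟨x, hL hx⟩, hLK (show (⟨x, hL hx⟩ : H) ∈ L.subgroupOf H from hx), rfl⟩

theorem idx_gen {H U X : Subgroup G} (h : Idx p H U) (hUX : U ≤ X) {g : G} (hgH : g ∈ H)
    (hgX : g ∈ X) (hgU : g ∉ U) : H ≤ X := by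
  have hp : p.Prime := Fact.out
  have h1 : U.relIndex (X ⊓ H) * (X ⊓ H).relIndex H = p := by
    rw [Subgroup.relIndex_mul_relIndex U (X ⊓ H) H (le_inf hUX h.le) inf_le_right, h.index]
  have h2 : U.relIndex (X ⊓ H) ≠ 1 := fun e =>
    hgU (Subgroup.relIndex_eq_one.mp e ⟨hgX, hgH⟩)
  rcases (Nat.dvd_prime hp).mp ⟨_, h1.symm⟩ with e | e
  · exact absurd e h2
  · rw [e] at h1
    have h3 : (X ⊓ H).relIndex H = 1 :=
      Nat.eq_of_mul_eq_mul_left hp.pos (by rw [h1, mul_one])
    exact (Subgroup.relIndex_eq_one.mp h3).trans inf_le_left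

theorem idx_not_le {H U : Subgroup G} (h : Idx p H U) : ¬ H ≤ U := fun hle => by
  have h1 := h.index
  rw [Subgroup.relIndex_eq_one.mpr hle] at h1
  exact (Fact.out : p.Prime).ne_one h1.symm

theorem idx_exists_not_mem {H U : Subgroup G} (h : Idx p H U) : ∃ g ∈ H, g ∉ U :=
  Set.not_subset.mp (idx_not_le h)

theorem idx_eq_of_le {H U M : Subgroup G} (hU : Idx p H U) (hM : Idx p H M) (hle : U ≤ M) :
    U = M := by
  refine le_antisymm hle fun x hx => ?_
  by_contra hxU
  exact idx_not_le hM (idx_gen hU hle (hM.le hx) hx hxU)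

theorem idx_inf {H U M : Subgroup G} (hU : Idx p H U) (hM : Idx p H M) (hne : U ≠ M) :
    Idx p U (U ⊓ M) := by
  haveI := hM.normal
  have hsub : (U ⊓ M).subgroupOf U = M.subgroupOf U := Subgroup.inf_subgroupOf_left M U
  refine ⟨inf_le_left, ?_, ?_⟩
  · rw [hsub]
    constructor
    intro n hn u
    exact (Subgroup.Normal.conj_mem hM.normal ⟨(n : G), hM.le hn⟩ hn ⟨(u : G), hU.le u.2⟩ : _)
  · rw [Subgroup.inf_relIndex_left]
    have hdvd : (M.subgroupOf H).relIndex (U.subgroupOf H) ∣ (M.subgroupOf H).index :=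
      Subgroup.relIndex_dvd_index_of_normal _ _
    rw [Subgroup.relIndex_subgroupOf hU.le] at hdvd
    rw [show (M.subgroupOf H).index = p from hM.index] at hdvd
    rcases (Nat.dvd_prime (Fact.out : p.Prime)).mp hdvd with e | e
    · exact absurd (idx_eq_of_le hU hM (Subgroup.relIndex_eq_one.mp e)) hne
    · exact e

theorem exists_not_mem_two {H U M : Subgroup G} (hU : ¬ H ≤ U) (hM : ¬ H ≤ M) :
    ∃ g ∈ H, g ∉ U ∧ g ∉ M := by
  obtain ⟨x, hx, hxU⟩ := Set.not_subset.mp hU
  obtain ⟨y, hy, hyM⟩ := Set.not_subset.mp hM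
  by_cases hxM : x ∈ M
  · by_cases hyU : y ∈ U
    · refine ⟨x * y, H.mul_mem hx hy, ?_, ?_⟩
      · intro h; exact hxU ((U.mul_mem_cancel_right hyU).mp h)
      · intro h; exact hyM ((M.mul_mem_cancel_left hxM).mp h)
    · exact ⟨y, hy, hyU, hyM⟩
  · exact ⟨x, hx, hxU, hxM⟩

/-- Between `U ⊓ M` and `H` there is a maximal subgroup containing a given element. -/
theorem exists_third {H U M : Subgroup G} (hU : Idx p H U) (hM : Idx p H M) (hne : U ≠ M)
    {g : G} (hg : g ∈ H) (hgU : g ∉ U) :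
    ∃ X : Subgroup G, Idx p H X ∧ g ∈ X ∧ U ⊓ X = U ⊓ M := by
  have hp : p.Prime := Fact.out
  haveI := hU.normal
  haveI := hM.normal
  let K : Subgroup H := U.subgroupOf H ⊓ M.subgroupOf H
  haveI : K.Normal := Subgroup.normal_inf_normal _ _
  have hKmap : K = (U ⊓ M).subgroupOf H := (Subgroup.comap_inf _ _ _).symm
  have hKidx : K.index = p * p := by
    rw [hKmap]
    change (U ⊓ M).relIndex H = _
    rw [← Subgroup.relIndex_mul_relIndex (U ⊓ M) U H inf_le_left hU.le, hU.index,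
      (idx_inf hU hM hne).index]
  let f := QuotientGroup.mk' K
  let g0 : H := ⟨g, hg⟩
  have hgK : g0 ∉ K := fun h => hgU h.1
  have hpow : g0 ^ p ∈ K := by
    constructor
    · have h := (U.subgroupOf H).pow_index_mem g0
      rwa [show (U.subgroupOf H).index = p from hU.index] at h
    · have h := (M.subgroupOf H).pow_index_mem g0
      rwa [show (M.subgroupOf H).index = p from hM.index] at h
  have hord : orderOf (f g0) = p := by
    refine orderOf_eq_prime ?_ ?_
    · rw [← map_pow]; exact (QuotientGroup.eq_one_iff _).mpr hpow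
    · exact fun h => hgK ((QuotientGroup.eq_one_iff _).mp h)
  let X0 : Subgroup H := (Subgroup.zpowers (f g0)).comap f
  have hidx : X0.index = p := by
    have h1 : X0.index = (Subgroup.zpowers (f g0)).index :=
      Subgroup.index_comap_of_surjective _ (QuotientGroup.mk'_surjective K)
    have h2 := (Subgroup.zpowers (f g0)).card_mul_index
    rw [Nat.card_zpowers, hord, ← Subgroup.index_eq_card, hKidx] at h2
    rw [h1]
    exact Nat.eq_of_mul_eq_mul_left hp.pos h2
  have hnorm : X0.Normal := by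
    haveI : IsMulCommutative (H ⧸ K) := by
      haveI : Fact p.Prime := ⟨hp⟩
      exact ⟨⟨IsPGroup.commutative_of_card_eq_prime_sq (p := p)
        (by rw [← Subgroup.index_eq_card, hKidx, sq])⟩⟩
    infer_instance
  have hgX : g ∈ X0.map H.subtype := ⟨g0, Subgroup.mem_zpowers (f g0), rfl⟩
  have hIdx : Idx p H (X0.map H.subtype) := by
    refine ⟨Subgroup.map_subtype_le _, ?_, ?_⟩
    · rw [Subgroup.subgroupOf, Subgroup.comap_map_eq_self_of_injective H.subtype_injective]
      exact hnorm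
    · rw [Subgroup.relIndex, Subgroup.subgroupOf,
        Subgroup.comap_map_eq_self_of_injective H.subtype_injective, hidx]
  refine ⟨_, hIdx, hgX, ?_⟩
  have hKX : U ⊓ M ≤ U ⊓ X0.map H.subtype := by
    refine le_inf inf_le_left fun x hx => ⟨⟨x, hU.le hx.1⟩, ?_, rfl⟩
    have h1 : f ⟨x, hU.le hx.1⟩ = 1 := (QuotientGroup.eq_one_iff _).mpr ⟨hx.1, hx.2⟩
    refine Subgroup.mem_comap.mpr ?_
    rw [h1]
    exact one_mem _
  have hneX : U ≠ X0.map H.subtype := fun h => hgU (h ▸ hgX)
  exact (idx_eq_of_le (idx_inf hU hM hne) (idx_inf hU hIdx hneX) hKX).symm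

/-- The elements of `U` that are central in `H` modulo `⁅U, U⁆`. -/
def cz (H U : Subgroup G) : Subgroup G where
  carrier := {u | u ∈ U ∧ u ∈ Subgroup.normalizer ((⁅U, U⁆ : Subgroup G) : Set G) ∧
    ∀ h ∈ H, h * u * h⁻¹ * u⁻¹ ∈ ⁅U, U⁆}
  one_mem' := ⟨U.one_mem, one_mem _, fun h _ => by simp⟩
  mul_mem' := by
    rintro a b ⟨ha, hna, hac⟩ ⟨hb, hnb, hbc⟩
    refine ⟨U.mul_mem ha hb, mul_mem hna hnb, fun h hh => ?_⟩
    have h2 : a * (h * b * h⁻¹ * b⁻¹) * a⁻¹ ∈ ⁅U, U⁆ :=
      (Subgroup.mem_normalizer_iff.mp hna _).mp (hbc h hh)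
    have h1 := Subgroup.mul_mem _ (hac h hh) h2
    convert h1 using 1
    group
  inv_mem' := by
    rintro a ⟨ha, hna, hac⟩
    refine ⟨U.inv_mem ha, inv_mem hna, fun h hh => ?_⟩
    have h1 := Subgroup.inv_mem _ (hac h hh)
    have h2 := (Subgroup.mem_normalizer_iff.mp (inv_mem hna) _).mp h1
    convert h2 using 1
    group

theorem cz_le (H U : Subgroup G) : cz H U ≤ U := fun _ h => h.1

theorem normalizes_derived {H U : Subgroup G} (hU : Idx p H U) :
    H ≤ Subgroup.normalizer ((⁅U, U⁆ : Subgroup G) : Set G) := by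
  haveI := hU.normal
  have hmap : (⁅U.subgroupOf H, U.subgroupOf H⁆).map H.subtype = ⁅U, U⁆ := by
    rw [Subgroup.map_commutator, Subgroup.subgroupOf, Subgroup.map_comap_eq,
      Subgroup.range_subtype, inf_eq_right.mpr hU.le]
  have hle : ⁅U, U⁆ ≤ H := hmap ▸ Subgroup.map_subtype_le _
  rw [← Subgroup.normal_subgroupOf_iff_le_normalizer hle]
  rw [← hmap, Subgroup.subgroupOf, Subgroup.comap_map_eq_self_of_injective H.subtype_injective]
  infer_instance

theorem step {H U : Subgroup G} (hU : Idx p H U) {g : G} (hg : g ∈ H) (hgU : g ∉ U) :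
    Nat.card ↥⁅H, H⁆ ≤ Nat.card ↥⁅U, U⁆ * (cz H U).relIndex U ∧
      Subgroup.centralizer ({g} : Set G) ⊓ U ≤ cz H U ∧
      ∀ u ∈ U, u ∉ cz H U → br U u * p = br H u := by
  haveI := hU.normal
  let U0 : Subgroup H := U.subgroupOf H
  let C0 : Subgroup H := ⁅U0, U0⁆
  have hmap : C0.map H.subtype = ⁅U, U⁆ := by
    simp only [C0, U0]
    rw [Subgroup.map_commutator, Subgroup.subgroupOf, Subgroup.map_comap_eq,
      Subgroup.range_subtype, inf_eq_right.mpr hU.le]
  let f := QuotientGroup.mk' C0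
  have hC0U : C0 ≤ U0 := Subgroup.commutator_le_left U0 U0
  have hf : Function.Surjective f := QuotientGroup.mk'_surjective C0
  let ι : U →* H := Subgroup.inclusion hU.le
  have hmemC : ∀ x : H, x ∈ C0 ↔ (x : G) ∈ ⁅U, U⁆ := by
    intro x
    rw [← hmap]
    exact ⟨fun h => ⟨x, h, rfl⟩, by rintro ⟨y, hy, hxy⟩; rwa [Subtype.ext hxy] at hy⟩
  -- membership in `cz` through the quotient
  have hcz : ∀ (u : G) (hu : u ∈ U),
      u ∈ cz H U ↔ ∀ h : H, f h * f (ι ⟨u, hu⟩) = f (ι ⟨u, hu⟩) * f h := by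
    intro u hu
    have key : ∀ h : H, f h * f (ι ⟨u, hu⟩) = f (ι ⟨u, hu⟩) * f h ↔
        (h : G) * u * (h : G)⁻¹ * u⁻¹ ∈ ⁅U, U⁆ := by
      intro h
      rw [← commutatorElement_eq_one_iff_mul_comm, ← map_commutatorElement]
      exact (QuotientGroup.eq_one_iff _).trans ((hmemC _).trans (by rfl))
    exact ⟨fun h x => (key x).mpr (h.2.2 x x.2), fun h =>
      ⟨hu, normalizes_derived hU (hU.le hu), fun x hx => (key ⟨x, hx⟩).mp (h ⟨x, hx⟩)⟩⟩
  -- the images of `U` commute
  have hab : ∀ a b : H, a ∈ U0 → b ∈ U0 → f a * f b = f b * f a := by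
    intro a b ha hb
    rw [← commutatorElement_eq_one_iff_mul_comm, ← map_commutatorElement]
    exact (QuotientGroup.eq_one_iff _).mpr (Subgroup.commutator_mem_commutator ha hb)
  have hgen : ∀ (X : Subgroup H) (c : H), U0 ≤ X → c ∈ X → (c : G) ∉ U → X = ⊤ := by
    intro X c hX hc hcU
    have h1 : H ≤ X.map H.subtype :=
      idx_gen hU (fun x hx => ⟨⟨x, hU.le hx⟩, hX hx, rfl⟩) c.2 ⟨c, hc, rfl⟩ hcU
    rw [eq_top_iff]
    intro x _
    obtain ⟨y, hy, hxy⟩ := h1 x.2
    rwa [Subtype.ext hxy] at hy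
  have hcomm : ∀ (u : G) (hu : u ∈ U) (c : H), (c : G) ∉ U →
      f c * f (ι ⟨u, hu⟩) = f (ι ⟨u, hu⟩) * f c → u ∈ cz H U := by
    intro u hu c hcU hc
    rw [hcz u hu]
    let X : Subgroup H := (Subgroup.centralizer {f (ι ⟨u, hu⟩)}).comap f
    have hX : X = ⊤ := by
      refine hgen X c (fun x hx => ?_) ?_ hcU
      · exact Subgroup.mem_centralizer_singleton_iff.mpr (hab x _ hx hu)
      · exact Subgroup.mem_centralizer_singleton_iff.mpr hc
    intro h
    have h1 : h ∈ X := hX ▸ Subgroup.mem_top h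
    exact Subgroup.mem_centralizer_singleton_iff.mp h1
  let g0 : H := ⟨g, hg⟩
  refine ⟨?_, ?_, ?_⟩
  · have hcommU : ∀ u : U, f ⁅g0, ι u⁆ ∈ U0.map f := fun u =>
      ⟨_, Subgroup.commutator_le_right ⊤ U0
        (Subgroup.commutator_mem_commutator (Subgroup.mem_top g0) (show ι u ∈ U0 from u.2)), rfl⟩
    let φ : U →* H ⧸ C0 :=
      MonoidHom.mk' (fun u => f ⁅g0, ι u⁆) (by
        intro a b
        change f ⁅g0, ι (a * b)⁆ = f ⁅g0, ι a⁆ * f ⁅g0, ι b⁆
        obtain ⟨y, hy, hyb⟩ := hcommU b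
        have h1 : f (ι a) * f ⁅g0, ι b⁆ = f ⁅g0, ι b⁆ * f (ι a) := by
          rw [← hyb]; exact hab _ _ a.2 hy
        have h2 : ⁅g0, ι (a * b)⁆ = ⁅g0, ι a⁆ * (ι a * ⁅g0, ι b⁆ * (ι a)⁻¹) := by
          rw [map_mul]; simp only [commutatorElement_def]; group
        rw [h2, map_mul, map_mul, map_mul, map_inv, h1, mul_inv_cancel_right])
    let R : Subgroup (H ⧸ C0) := φ.range
    have hRU : R ≤ U0.map f := by
      rintro _ ⟨u, rfl⟩; exact hcommU u
    have hRn : R.Normal := by
      have hX : (Subgroup.normalizer (R : Set (H ⧸ C0))).comap f = ⊤ := by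
        refine hgen _ g0 (fun x hx => ?_) ?_ hgU
        · refine Subgroup.mem_normalizer_iff.mpr fun r => ?_
          constructor
          · intro hr
            obtain ⟨y, hy, hyr⟩ := hRU hr
            have h1 : f x * r * (f x)⁻¹ = r := by
              rw [← hyr, hab x y hx hy, mul_inv_cancel_right]
            rwa [h1]
          · intro hr
            obtain ⟨y, hy, hyr⟩ := hRU hr
            have h1 : f x * r * (f x)⁻¹ = r := by
              have h2 : (f x)⁻¹ * f y * f x = r := by rw [hyr]; group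
              rw [← h2, mul_assoc (f x)⁻¹, hab y x hy hx, inv_mul_cancel_left,
                hab x y hx hy, mul_inv_cancel_right]
            rwa [← h1]
        · refine Subgroup.mem_normalizer_fintype fun r hr => ?_
          obtain ⟨u, rfl⟩ := hr
          have hmem : g * (u : G) * g⁻¹ ∈ U :=
            (Subgroup.Normal.conj_mem hU.normal (ι u) u.2 g0 : _)
          refine ⟨⟨g * (u : G) * g⁻¹, hmem⟩, ?_⟩
          change f ⁅g0, ι ⟨_, hmem⟩⁆ = f g0 * f ⁅g0, ι u⁆ * (f g0)⁻¹
          rw [← map_mul, ← map_inv, ← map_mul]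
          congr 1
          have h3 : ι ⟨g * (u : G) * g⁻¹, hmem⟩ = g0 * ι u * g0⁻¹ := rfl
          rw [h3]
          simp only [commutatorElement_def]
          group
      rw [← Subgroup.normalizer_eq_top_iff, eq_top_iff]
      intro q _
      obtain ⟨x, rfl⟩ := hf q
      have h1 : x ∈ (Subgroup.normalizer (R : Set (H ⧸ C0))).comap f := hX ▸ Subgroup.mem_top x
      exact h1
    haveI := hRn
    let k := (QuotientGroup.mk' R).comp f
    have hgu : ∀ x : H, x ∈ U0 → k g0 * k x = k x * k g0 := by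
      intro x hx
      rw [← commutatorElement_eq_one_iff_mul_comm, ← map_commutatorElement]
      exact (QuotientGroup.eq_one_iff _).mpr ⟨⟨(x : G), hx⟩, rfl⟩
    have hkab : ∀ x y : H, x ∈ U0 → y ∈ U0 → k x * k y = k y * k x := by
      intro x y hx hy
      simp only [k, MonoidHom.comp_apply, ← map_mul]
      exact congrArg (QuotientGroup.mk' R) (by simpa [map_mul] using hab x y hx hy)
    have hcentral : ∀ x y : H, k x * k y = k y * k x := by
      have h1 : ∀ x : H, x ∈ U0 ∨ x = g0 → ∀ y : H, k y * k x = k x * k y := by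
        intro x hx y
        let X : Subgroup H := (Subgroup.centralizer {k x}).comap k
        have hX : X = ⊤ := by
          refine hgen X g0 (fun z hz => ?_) ?_ hgU
          · refine Subgroup.mem_centralizer_singleton_iff.mpr ?_
            rcases hx with hx | rfl
            · exact hkab z x hz hx
            · exact (hgu z hz).symm
          · refine Subgroup.mem_centralizer_singleton_iff.mpr ?_
            rcases hx with hx | rfl
            · exact hgu x hx
            · rfl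
        exact Subgroup.mem_centralizer_singleton_iff.mp (show y ∈ X from hX ▸ Subgroup.mem_top y)
      intro x y
      let X : Subgroup H := (Subgroup.centralizer {k y}).comap k
      have hX : X = ⊤ := by
        refine hgen X g0 (fun z hz => ?_) ?_ hgU
        · exact Subgroup.mem_centralizer_singleton_iff.mpr (h1 z (Or.inl hz) y).symm
        · exact Subgroup.mem_centralizer_singleton_iff.mpr (h1 g0 (Or.inr rfl) y).symm
      exact Subgroup.mem_centralizer_singleton_iff.mp (show x ∈ X from hX ▸ Subgroup.mem_top x)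
    have hle : (commutator H).map f ≤ R := by
      rw [Subgroup.map_le_iff_le_comap, commutator_def, Subgroup.commutator_le]
      intro x _ y _
      rw [Subgroup.mem_comap, ← QuotientGroup.eq_one_iff]
      change k ⁅x, y⁆ = 1
      rw [map_commutatorElement, commutatorElement_eq_one_iff_mul_comm]
      exact hcentral x y
    have hcardR : Nat.card R = (cz H U).relIndex U := by
      rw [← Subgroup.index_ker φ]
      change _ = ((cz H U).subgroupOf U).index
      congr 1
      ext u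
      rw [MonoidHom.mem_ker, Subgroup.mem_subgroupOf]
      change f ⁅g0, ι u⁆ = 1 ↔ _
      rw [map_commutatorElement, commutatorElement_eq_one_iff_mul_comm]
      exact ⟨hcomm u u.2 g0 hgU, fun h => (hcz u u.2).mp h g0⟩
    have hker : f.ker ≤ commutator H := by
      rw [QuotientGroup.ker_mk', commutator_def]
      exact Subgroup.commutator_mono le_top le_top
    have hcard : Nat.card (commutator H) ≤ Nat.card C0 * (cz H U).relIndex U := by
      rw [← hcardR]
      have e1 := (commutator H).card_mul_index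
      have e2 := ((commutator H).map f).card_mul_index
      rw [Subgroup.index_map_eq _ hf hker] at e2
      have e3 : Nat.card H = Nat.card C0 * Nat.card (H ⧸ C0) := by
        rw [mul_comm]; exact Subgroup.card_eq_card_quotient_mul_card_subgroup C0
      have e4 : Nat.card (commutator H) =
          Nat.card C0 * Nat.card ((commutator H).map f) := by
        refine Nat.eq_of_mul_eq_mul_right
          (Nat.pos_of_ne_zero (commutator H).index_ne_zero_of_finite) ?_
        rw [e1, e3, ← e2, mul_assoc]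
      rw [e4]
      exact Nat.mul_le_mul_left _ (Subgroup.card_le_of_le hle)
    rw [← Subgroup.map_subtype_commutator, ← hmap,
      Subgroup.card_map_of_injective H.subtype_injective,
      Subgroup.card_map_of_injective H.subtype_injective]
    exact hcard
  · rintro u ⟨huC, huU⟩
    refine hcomm u huU g0 hgU ?_
    have h : ι ⟨u, huU⟩ * g0 = g0 * ι ⟨u, huU⟩ :=
      Subtype.ext (Subgroup.mem_centralizer_singleton_iff.mp huC)
    rw [← map_mul, ← map_mul, h]
  · intro u hu hucz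
    have hle : Subgroup.centralizer ({u} : Set G) ⊓ H ≤ U := by
      rintro c ⟨hc, hcH⟩
      by_contra hcU
      refine hucz (hcomm u hu ⟨c, hcH⟩ hcU ?_)
      have h : (⟨c, hcH⟩ : H) * ι ⟨u, hu⟩ = ι ⟨u, hu⟩ * ⟨c, hcH⟩ :=
        Subtype.ext (Subgroup.mem_centralizer_singleton_iff.mp hc)
      rw [← map_mul, ← map_mul, h]
    have heq : Subgroup.centralizer ({u} : Set G) ⊓ H = Subgroup.centralizer ({u} : Set G) ⊓ U :=
      le_antisymm (le_inf inf_le_left hle) (inf_le_inf_left _ hU.le)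
    have h1 := Subgroup.relIndex_mul_relIndex (Subgroup.centralizer ({u} : Set G) ⊓ U) U H
      inf_le_right hU.le
    rw [Subgroup.inf_relIndex_right, hU.index, ← heq, Subgroup.inf_relIndex_right] at h1
    exact h1

theorem relIndex_pos (A B : Subgroup G) : 0 < A.relIndex B :=
  Nat.pos_of_ne_zero (A.subgroupOf B).index_ne_zero_of_finite

theorem br_mono {H K : Subgroup G} (h : K ≤ H) (x : G) : br K x ≤ br H x :=
  Subgroup.relIndex_le_of_le_right h (relIndex_pos _ _).ne'

theorem cz_relIndex_le {H U : Subgroup G} (hU : Idx p H U) {g : G} (hg : g ∈ H) (hgU : g ∉ U) :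
    (cz H U).relIndex U ≤ br H g := by
  refine le_trans ?_ (br_mono hU.le g)
  have h := Subgroup.relIndex_dvd_of_le_left U (step hU hg hgU).2.1
  rw [Subgroup.inf_relIndex_right] at h
  exact Nat.le_of_dvd (relIndex_pos _ _) h

theorem derived_le_of_cz {H U : Subgroup G} (hU : Idx p H U) {g : G} (hg : g ∈ H) (hgU : g ∉ U)
    (h : U ≤ cz H U) : Nat.card ↥⁅H, H⁆ ≤ Nat.card ↥⁅U, U⁆ := by
  have h1 := (step hU hg hgU).1
  rwa [Subgroup.relIndex_eq_one.mpr h, mul_one] at h1

theorem derived_le_of_central {H U : Subgroup G} (hU : Idx p H U) {g : G} (hg : g ∈ H)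
    (hgU : g ∉ U) (hc : H ≤ Subgroup.centralizer ({g} : Set G)) :
    Nat.card ↥⁅H, H⁆ ≤ Nat.card ↥⁅U, U⁆ :=
  derived_le_of_cz hU hg hgU fun _ hu =>
    (step hU hg hgU).2.1 ⟨hc (hU.le hu), hu⟩

/-- If the index of `cz H U` in `U` is as large as possible, every admissible element outside `U`
centralises `cz H U`. -/
theorem cz_le_centralizer {H U : Subgroup G} (hU : Idx p H U) {g : G} (hg : g ∈ H) (hgU : g ∉ U)
    (h : br H g ≤ (cz H U).relIndex U) : cz H U ≤ Subgroup.centralizer ({g} : Set G) := by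
  have h2 := Subgroup.relIndex_mul_relIndex (Subgroup.centralizer ({g} : Set G) ⊓ U) (cz H U) U
    (step hU hg hgU).2.1 (cz_le H U)
  rw [Subgroup.inf_relIndex_right] at h2
  have h3 : (Subgroup.centralizer ({g} : Set G) ⊓ U).relIndex (cz H U) * (cz H U).relIndex U ≤
      1 * (cz H U).relIndex U := by
    rw [h2, one_mul]
    exact (br_mono hU.le g).trans h
  have h4 := Nat.le_of_mul_le_mul_right h3 (relIndex_pos _ _)
  have h5 : (Subgroup.centralizer ({g} : Set G) ⊓ U).relIndex (cz H U) = 1 :=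
    le_antisymm h4 (relIndex_pos _ _)
  exact (Subgroup.relIndex_eq_one.mp h5).trans inf_le_left

theorem cz_relIndex_dichotomy (hG : IsPGroup p G) (H U : Subgroup G) {c : ℕ}
    (h : (cz H U).relIndex U ≤ p ^ (c + 1)) :
    (cz H U).relIndex U ≤ p ^ c ∨ (cz H U).relIndex U = p ^ (c + 1) := by
  have hp : p.Prime := Fact.out
  obtain ⟨n, hn⟩ := (hG.to_subgroup U).exists_card_eq
  have hdvd : (cz H U).relIndex U ∣ p ^ n := by
    rw [← hn]; exact Subgroup.index_dvd_card _
  obtain ⟨k, -, hk⟩ := (Nat.dvd_prime_pow hp).mp hdvd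
  rw [hk] at h ⊢
  have hkc : k ≤ c + 1 := (Nat.pow_le_pow_iff_right hp.one_lt).mp h
  rcases eq_or_lt_of_le hkc with e | e
  · exact Or.inr (by rw [e])
  · exact Or.inl (Nat.pow_le_pow_right hp.pos (Nat.lt_succ_iff.mp e))

theorem br_pos (H : Subgroup G) (x : G) : 0 < br H x :=
  relIndex_pos _ _

/-- Drop of the breadth, and positivity of the exponent. -/
theorem drop {H U : Subgroup G} (hU : Idx p H U) {g : G} (hg : g ∈ H) (hgU : g ∉ U) {u : G}
    (hu : u ∈ U) (hucz : u ∉ cz H U) {c : ℕ} (hb : br H u ≤ p ^ c) :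
    ∃ d, c = d + 1 ∧ br U u ≤ p ^ d := by
  have hp : p.Prime := Fact.out
  have h1 := (step hU hg hgU).2.2 u hu hucz
  cases c with
  | zero =>
    exfalso
    have h2 : 1 * p ≤ br H u := h1 ▸ Nat.mul_le_mul_right p (br_pos U u)
    have := hp.two_le
    simp at hb
    omega
  | succ d =>
    refine ⟨d, rfl, Nat.le_of_mul_le_mul_right ?_ hp.pos⟩
    rw [h1]; exact hb.trans_eq (pow_succ p d)

variable (G p) in
def BrP (c : ℕ) : Prop :=
  ∀ H M : Subgroup G, ¬ H ≤ M → (∀ x ∈ H, x ∉ M → br H x ≤ p ^ c) →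
    Nat.card ↥⁅H, H⁆ ≤ p ^ tri c

variable (G p) in
def BrQ (c : ℕ) : Prop :=
  ∀ U K E : Subgroup G, Idx p U K → Idx p U E → K ≠ E →
    (∀ x ∈ U, x ∉ K → br U x ≤ p ^ (c + 1)) →
    (∀ x ∈ U, x ∉ K → x ∉ E → br U x ≤ p ^ c) →
    Nat.card ↥⁅U, U⁆ ≤ p ^ (tri c + 1)

theorem brP_all_small {c : ℕ} (hP : BrP G p c) {H : Subgroup G}
    (h : ∀ x ∈ H, br H x ≤ p ^ c) : Nat.card ↥⁅H, H⁆ ≤ p ^ tri c := by
  by_cases hH : H = ⊥
  · subst hH
    simp [Nat.one_le_iff_ne_zero, (Fact.out : p.Prime).ne_zero]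
  · exact hP H ⊥ (fun hle => hH (le_bot_iff.mp hle)) fun x hx _ => h x hx

theorem brQ_succ_step (hG : IsPGroup p G) (c : ℕ) (hP : ∀ d, d ≤ c → BrP G p d)
    (hQ : ∀ d, d < c → BrQ G p d) : BrQ G p c := by
  intro U K E hK hE hne hK' hKE
  have hp : p.Prime := Fact.out
  obtain ⟨s, hs, hsK, hsE⟩ := exists_not_mem_two (idx_not_le hK) (idx_not_le hE)
  obtain ⟨Z, hZ, hsZ, hZQ⟩ := exists_third hK hE hne hs hsK
  have hKZne : K ≠ Z := fun h => hsK (h ▸ hsZ)
  have hQ0 : Idx p K (K ⊓ E) := idx_inf hK hE hne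
  have hQK : Idx p Z (Z ⊓ K) := idx_inf hZ hK (Ne.symm hKZne)
  have hZK : Z ⊓ K = K ⊓ E := inf_comm Z K ▸ hZQ
  have hZQE : ∀ z ∈ Z, z ∉ K ⊓ E → z ∉ K ∧ z ∉ E := by
    intro z hz hzQ
    have hzK : z ∉ K := fun h => hzQ (hZK ▸ ⟨hz, h⟩)
    refine ⟨hzK, fun hzE => ?_⟩
    -- `Z ⊓ E` contains the maximal subgroup `K ⊓ E` of `Z` and `z`, so `Z ≤ E`
    have h1 : Z ≤ E := idx_gen (hZK ▸ hQK) inf_le_right hz hzE hzQ
    exact hsE (h1 hsZ)
  obtain ⟨r, hr, hrK, hrZ⟩ : ∃ r ∈ E, r ∉ K ∧ r ∉ Z := by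
    obtain ⟨r, hr, hrQ⟩ := idx_exists_not_mem (idx_inf hE hK (Ne.symm hne))
    refine ⟨r, hr, fun h => hrQ ⟨hr, h⟩, fun h => ?_⟩
    exact (hZQE r h fun h' => hrQ ⟨hr, h'.1⟩).2 hr
  have hrU : r ∈ U := hE.le hr
  have hbound := (step hZ hrU hrZ).1
  have hidx : (cz U Z).relIndex Z ≤ p ^ (c + 1) :=
    (cz_relIndex_le hZ hrU hrZ).trans (hK' r hrU hrK)
  -- the breadth of the elements of `Z` outside `K ⊓ E`
  have hZb : ∀ z ∈ Z, z ∉ K ⊓ E → br U z ≤ p ^ c := fun z hz hzQ =>
    hKE z (hZ.le hz) (hZQE z hz hzQ).1 (hZQE z hz hzQ).2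
  by_cases h0 : Z ≤ cz U Z
  · have h1 : Nat.card ↥⁅U, U⁆ ≤ Nat.card ↥⁅Z, Z⁆ := derived_le_of_cz hZ hrU hrZ h0
    have h2 := hP c le_rfl Z (K ⊓ E) (hZK ▸ idx_not_le hQK)
      fun z hz hzQ => (br_mono hZ.le z).trans (hZb z hz hzQ)
    exact (h1.trans h2).trans (Nat.pow_le_pow_right hp.pos (Nat.le_succ _))
  have hczne : cz U Z ≠ Z := fun h => h0 h.ge
  by_cases h1 : cz U Z ≤ K ⊓ E
  · obtain ⟨z, hz, hzQ⟩ := Set.not_subset.mp (hZK ▸ idx_not_le hQK)
    obtain ⟨d, rfl, -⟩ := drop hZ hrU hrZ hz (fun h => hzQ (h1 h)) (hZb z hz hzQ)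
    have h2 := hP d (Nat.le_succ d) Z (K ⊓ E) (hZK ▸ idx_not_le hQK) fun x hx hxQ => by
      obtain ⟨d', hd', hx'⟩ := drop hZ hrU hrZ hx (fun h => hxQ (h1 h)) (hZb x hx hxQ)
      rwa [Nat.succ_injective hd']
    refine hbound.trans ((Nat.mul_le_mul h2 hidx).trans_eq ?_)
    rw [← pow_add]
    congr 1
  obtain ⟨e, he, heQ⟩ := Set.not_subset.mp h1
  have heZ : e ∈ Z := cz_le U Z he
  obtain ⟨EZ, hEZ, hEZle⟩ := exists_idx_ge hG (cz_le U Z) hczne
  have hEZne : K ⊓ E ≠ EZ := fun h => heQ (h ▸ hEZle he)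
  -- an element outside both exceptional subgroups of `Z`
  obtain ⟨z, hz, hzQ, hzEZ⟩ := exists_not_mem_two (hZK ▸ idx_not_le hQK) (idx_not_le hEZ)
  obtain ⟨d, rfl, -⟩ := drop hZ hrU hrZ hz (fun h => hzEZ (hEZle h)) (hZb z hz hzQ)
  rcases cz_relIndex_dichotomy hG U Z hidx with hsmall | hbig
  · have h2 := hQ d (Nat.lt_succ_self d) Z (K ⊓ E) EZ (hZK ▸ hQK) hEZ hEZne
      (fun x hx hxQ => (br_mono hZ.le x).trans (hZb x hx hxQ))
      (fun x hx hxQ hxE => by
        obtain ⟨d', hd', hx'⟩ := drop hZ hrU hrZ hx (fun h => hxE (hEZle h)) (hZb x hx hxQ)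
        rwa [Nat.succ_injective hd'])
    refine hbound.trans ((Nat.mul_le_mul h2 hsmall).trans_eq ?_)
    rw [← pow_add]
    congr 1
    simp only [tri]
    omega
  -- the remaining case: `e` is central in `U`, and `U = E⟨e⟩`
  have hcent : ∀ r' ∈ E, r' ∉ K → cz U Z ≤ Subgroup.centralizer ({r'} : Set G) := by
    intro r' hr' hr'K
    refine cz_le_centralizer hZ (hE.le hr') (fun h => ?_) ?_
    · exact (hZQE r' h fun h' => hr'K h'.1).2 hr'
    · rw [hbig]; exact hK' r' (hE.le hr') hr'K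
  let C : Subgroup G := Subgroup.centralizer ({e} : Set G)
  have hC1 : ∀ r' ∈ E, r' ∉ K → r' ∈ C := fun r' hr' hr'K =>
    Subgroup.mem_centralizer_singleton_iff.mpr
      (Subgroup.mem_centralizer_singleton_iff.mp (hcent r' hr' hr'K he)).symm
  have hC2 : K ⊓ E ≤ C := by
    intro q hq
    have h2 : r * q ∈ C :=
      hC1 _ (E.mul_mem hr hq.2) fun h => hrK ((K.mul_mem_cancel_right hq.1).mp h)
    exact (C.mul_mem_cancel_left (hC1 r hr hrK)).mp h2
  have hC3 : Z ≤ C :=
    idx_gen (hZK ▸ hQK) hC2 heZ (Subgroup.mem_centralizer_singleton_iff.mpr rfl) heQ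
  have hC4 : U ≤ C := idx_gen hZ hC3 hrU (hC1 r hr hrK) hrZ
  have heE : e ∉ E := (hZQE e heZ heQ).2
  have heU : e ∈ U := hZ.le heZ
  have hUE : Nat.card ↥⁅U, U⁆ ≤ Nat.card ↥⁅E, E⁆ := derived_le_of_central hE heU heE hC4
  -- elements of `K ⊓ E` have breadth at most `d + 1` in `U`
  have hQb : ∀ q ∈ K ⊓ E, br E q ≤ p ^ (d + 1) := by
    intro q hq
    refine (br_mono hE.le q).trans ?_
    have hqU : q ∈ U := hK.le hq.1
    have heq : Subgroup.centralizer ({q} : Set G) ⊓ U =
        Subgroup.centralizer ({e * q} : Set G) ⊓ U := by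
      ext y
      simp only [Subgroup.mem_inf, Subgroup.mem_centralizer_singleton_iff]
      refine and_congr_left fun hy => ?_
      have hye : y * e = e * y := Subgroup.mem_centralizer_singleton_iff.mp (hC4 hy)
      constructor
      · intro h; rw [← mul_assoc, hye, mul_assoc, h, mul_assoc]
      · intro h
        rw [← mul_assoc, hye, mul_assoc, mul_assoc] at h
        exact mul_left_cancel h
    have h2 : br U q = br U (e * q) := by
      rw [br, br, ← Subgroup.inf_relIndex_right, heq, Subgroup.inf_relIndex_right]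
    rw [h2]
    have hqZ : q ∈ Z := (hZK.symm ▸ hq : q ∈ Z ⊓ K).1
    refine hZb _ (Z.mul_mem heZ hqZ) fun h => heQ ?_
    exact ((K ⊓ E).mul_mem_cancel_right hq).mp h
  have hQE : Idx p E (E ⊓ K) := idx_inf hE hK (Ne.symm hne)
  have hrQ : r ∉ E ⊓ K := fun h => hrK h.2
  have hb2 := (step hQE hr hrQ).1
  have hidx2 : (cz E (E ⊓ K)).relIndex (E ⊓ K) ≤ p ^ (d + 1 + 1) :=
    (cz_relIndex_le hQE hr hrQ).trans ((br_mono hE.le r).trans (hK' r hrU hrK))
  by_cases h3 : E ⊓ K ≤ cz E (E ⊓ K)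
  · have h4 := derived_le_of_cz hQE hr hrQ h3
    have h5 := brP_all_small (hP (d + 1) le_rfl) (H := E ⊓ K) fun x hx =>
      (br_mono inf_le_left x).trans (hQb x ⟨hx.2, hx.1⟩)
    exact ((hUE.trans h4).trans h5).trans (Nat.pow_le_pow_right hp.pos (Nat.le_succ _))
  · have h4 := hP d (Nat.le_succ d) (E ⊓ K) (cz E (E ⊓ K)) h3 fun x hx hx' => by
      obtain ⟨d', hd', hx''⟩ := drop hQE hr hrQ hx hx' (hQb x ⟨hx.2, hx.1⟩)
      rwa [Nat.succ_injective hd']
    refine hUE.trans (hb2.trans ((Nat.mul_le_mul h4 hidx2).trans_eq ?_))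
    rw [← pow_add]
    congr 1

theorem brP_step (hG : IsPGroup p G) (b : ℕ) (hP : ∀ d, d < b → BrP G p d)
    (hQ : ∀ d, d < b → BrQ G p d) : BrP G p b := by
  have hp : p.Prime := Fact.out
  suffices h : ∀ (n : ℕ) (H M : Subgroup G), Nat.card H = n → ¬ H ≤ M →
      (∀ x ∈ H, x ∉ M → br H x ≤ p ^ b) → Nat.card ↥⁅H, H⁆ ≤ p ^ tri b by
    exact fun H M => h _ H M rfl
  intro n
  induction n using Nat.strong_induction_on with
  | _ n ih =>
    intro H M0 hn hM0 hb0
    by_cases hab : ⁅H, H⁆ = ⊥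
    · rw [hab, Subgroup.card_bot]
      exact Nat.one_le_pow _ _ hp.pos
    have hne : M0 ⊓ H ≠ H := fun h => hM0 (h ▸ inf_le_left)
    obtain ⟨M, hM, hMle⟩ := exists_idx_ge hG (inf_le_right : M0 ⊓ H ≤ H) hne
    have hb : ∀ x ∈ H, x ∉ M → br H x ≤ p ^ b := fun x hx hxM =>
      hb0 x hx fun h => hxM (hMle ⟨h, hx⟩)
    -- a proper subgroup with the same derived subgroup finishes the proof
    have hred : ∀ X : Subgroup G, Idx p H X → X ≠ M →
        Nat.card ↥⁅H, H⁆ ≤ Nat.card ↥⁅X, X⁆ → Nat.card ↥⁅H, H⁆ ≤ p ^ tri b := by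
      intro X hX hXM hle
      have hlt : Nat.card X < n := by
        rw [← hn]
        rcases (Subgroup.card_le_of_le hX.le).lt_or_eq with h | h
        · exact h
        · exact absurd (Subgroup.eq_of_le_of_card_ge hX.le h.ge).ge (idx_not_le hX)
      refine hle.trans (ih _ hlt X M rfl (fun h => hXM (idx_eq_of_le hX hM h))
        fun x hx hxM => (br_mono hX.le x).trans (hb x (hX.le hx) hxM))
    obtain ⟨h0, hh0, hh0M⟩ := idx_exists_not_mem hM
    have hcyc : Subgroup.zpowers h0 ≠ H := by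
      intro h
      refine hab (Subgroup.commutator_eq_bot_iff_le_centralizer.mpr ?_)
      subst h
      intro x hx y hy
      obtain ⟨i, rfl⟩ := Subgroup.mem_zpowers_iff.mp hx
      obtain ⟨j, rfl⟩ := Subgroup.mem_zpowers_iff.mp hy
      rw [← zpow_add, ← zpow_add, add_comm]
    obtain ⟨U, hU, hUle⟩ := exists_idx_ge hG (Subgroup.zpowers_le.mpr hh0) hcyc
    have hUM : U ≠ M := fun h => hh0M (h ▸ hUle (Subgroup.mem_zpowers h0))
    obtain ⟨g, hg, hgU, hgM⟩ := exists_not_mem_two (idx_not_le hU) (idx_not_le hM)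
    have hbound := (step hU hg hgU).1
    by_cases hfull : U ≤ cz H U
    · exact hred U hU hUM (derived_le_of_cz hU hg hgU hfull)
    have hK : Idx p U (U ⊓ M) := idx_inf hU hM hUM
    have hUb : ∀ x ∈ U, x ∉ U ⊓ M → br H x ≤ p ^ b := fun x hx hxK =>
      hb x (hU.le hx) fun h => hxK ⟨hx, h⟩
    have hidx : (cz H U).relIndex U ≤ p ^ b := (cz_relIndex_le hU hg hgU).trans (hb g hg hgM)
    by_cases h1 : cz H U ≤ U ⊓ M
    · obtain ⟨u, hu, huK⟩ := idx_exists_not_mem hK
      obtain ⟨c, rfl, -⟩ := drop hU hg hgU hu (fun h => huK (h1 h)) (hUb u hu huK)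
      have h2 := hP c (Nat.lt_succ_self c) U (U ⊓ M) (idx_not_le hK) fun x hx hxK => by
        obtain ⟨c', hc', hx'⟩ := drop hU hg hgU hx (fun h => hxK (h1 h)) (hUb x hx hxK)
        rwa [Nat.succ_injective hc']
      refine hbound.trans ((Nat.mul_le_mul h2 hidx).trans_eq ?_)
      rw [← pow_add]
      rfl
    obtain ⟨r, hr, hrK⟩ := Set.not_subset.mp h1
    have hrU : r ∈ U := cz_le H U hr
    obtain ⟨E, hE, hEle⟩ := exists_idx_ge hG (cz_le H U) (fun h => hfull h.ge)
    have hKE : U ⊓ M ≠ E := fun h => hrK (h ▸ hEle hr)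
    obtain ⟨u, hu, huK, huE⟩ := exists_not_mem_two (idx_not_le hK) (idx_not_le hE)
    obtain ⟨c, rfl, -⟩ := drop hU hg hgU hu (fun h => huE (hEle h)) (hUb u hu huK)
    rcases cz_relIndex_dichotomy hG H U hidx with hsmall | hbig
    · have h2 := hQ c (Nat.lt_succ_self c) U (U ⊓ M) E hK hE hKE
        (fun x hx hxK => (br_mono hU.le x).trans (hUb x hx hxK))
        (fun x hx hxK hxE => by
          obtain ⟨c', hc', hx'⟩ := drop hU hg hgU hx (fun h => hxE (hEle h)) (hUb x hx hxK)
          rwa [Nat.succ_injective hc'])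
      refine hbound.trans ((Nat.mul_le_mul h2 hsmall).trans_eq ?_)
      rw [← pow_add]
      congr 1
      simp only [tri]
      omega
    -- otherwise `r` is central in `H`
    let C : Subgroup G := Subgroup.centralizer ({r} : Set G)
    have hC1 : ∀ g' ∈ H, g' ∉ U → g' ∉ M → g' ∈ C := by
      intro g' hg' hg'U hg'M
      have h2 : cz H U ≤ Subgroup.centralizer ({g'} : Set G) :=
        cz_le_centralizer hU hg' hg'U (hbig ▸ hb g' hg' hg'M)
      exact Subgroup.mem_centralizer_singleton_iff.mpr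
        (Subgroup.mem_centralizer_singleton_iff.mp (h2 hr)).symm
    have hC2 : U ⊓ M ≤ C := by
      intro k hk
      have h2 : g * k ∈ C :=
        hC1 _ (H.mul_mem hg (hU.le hk.1)) (fun h => hgU ((U.mul_mem_cancel_right hk.1).mp h))
          (fun h => hgM ((M.mul_mem_cancel_right hk.2).mp h))
      exact (C.mul_mem_cancel_left (hC1 g hg hgU hgM)).mp h2
    have hC3 : U ≤ C :=
      idx_gen hK hC2 hrU (Subgroup.mem_centralizer_singleton_iff.mpr rfl) hrK
    have hC4 : H ≤ C := idx_gen hU hC3 hg (hC1 g hg hgU hgM) hgU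
    obtain ⟨X, hX, hgX, hXU⟩ := exists_third hU hM hUM hg hgU
    refine hred X hX (fun h => hgM (h ▸ hgX))
      (derived_le_of_central hX (hU.le hrU) (fun h => hrK ?_) hC4)
    exact hXU ▸ (⟨hrU, h⟩ : r ∈ U ⊓ X)

theorem brP_brQ (hG : IsPGroup p G) (b : ℕ) : BrP G p b ∧ BrQ G p b := by
  induction b using Nat.strong_induction_on with
  | _ b ih =>
    have hP : BrP G p b := brP_step hG b (fun d hd => (ih d hd).1) (fun d hd => (ih d hd).2)
    refine ⟨hP, brQ_succ_step hG b (fun d hd => ?_) (fun d hd => (ih d hd).2)⟩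
    rcases hd.eq_or_lt with rfl | h
    · exact hP
    · exact (ih d h).1

/-- Vaughan-Lee's theorem. -/
theorem card_commutator_le (hG : IsPGroup p G) (b : ℕ)
    (hb : ∀ x : G, (Subgroup.centralizer ({x} : Set G)).index ≤ p ^ b) :
    Nat.card (commutator G) ≤ p ^ (b * (b + 1) / 2) := by
  rw [commutator_def, ← tri_eq]
  refine brP_all_small (brP_brQ hG b).1 fun x _ => ?_
  rw [br, Subgroup.relIndex_top_right]
  exact hb x

end Cfsg.Agent.KnownB.Breadth
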