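import Mathlib

/-! Endomorphisms as modules over polynomials: symmetrising forms and similarity to the transpose. -/

set_option autoImplicit false

namespace Cfsg.Agent.KnownB

open Module Polynomial

universe u v

variable {F : Type u} [Field F]

/-- A quotient of the polynomial ring is a Frobenius algebra. -/
theorem exists_frob {g : F[X]} (hg : g ≠ 0) :
    ∃ φ : (F[X] ⧸ Ideal.span {g}) →ₗ[F] F, ∀ a, (∀ b, φ (a * b) = 0) → a = 0 := by
  set g' := g * C g.leadingCoeff⁻¹ with hg'
  have hm : g'.Monic := monic_mul_leadingCoeff_inv hg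
  have hs : Ideal.span {g} = Ideal.span {g'} := by
    rw [hg', Ideal.span_singleton_mul_right_unit]
    exact isUnit_C.mpr (inv_ne_zero (leadingCoeff_ne_zero.mpr hg)).isUnit
  let e : (F[X] ⧸ Ideal.span {g}) ≃ₐ[F] AdjoinRoot g' := Ideal.quotientEquivAlgOfEq F hs
  let φ₀ : AdjoinRoot g' →ₗ[F] F := (lcoeff F (g'.natDegree - 1)).comp (AdjoinRoot.modByMonicHom hm)
  refine ⟨φ₀.comp e.toLinearMap, fun a ha => e.injective ?_⟩
  rw [map_zero]
  by_contra ha0
  set h := AdjoinRoot.modByMonicHom hm (e a) with hh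
  have hae : AdjoinRoot.mk g' h = e a := AdjoinRoot.mk_leftInverse hm _
  have hh0 : h ≠ 0 := fun h0 => ha0 (by rw [← hae, h0, map_zero])
  have hdeg : h.degree < g'.degree := by
    obtain ⟨p, hp⟩ := AdjoinRoot.mk_surjective (e a)
    rw [hh, ← hp, AdjoinRoot.modByMonicHom_mk]
    exact degree_modByMonic_lt _ hm
  have hnd : h.natDegree < g'.natDegree := natDegree_lt_natDegree hh0 hdeg
  set j := g'.natDegree - 1 - h.natDegree with hj
  have h1 := ha (e.symm (AdjoinRoot.mk g' (X ^ j)))
  simp only [LinearMap.coe_comp, Function.comp_apply, AlgEquiv.toLinearMap_apply, map_mul,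
    AlgEquiv.apply_symm_apply, φ₀] at h1
  rw [← hae, ← map_mul, AdjoinRoot.modByMonicHom_mk, lcoeff_apply,
    (modByMonic_eq_self_iff hm).mpr] at h1
  · rw [show g'.natDegree - 1 = h.natDegree + j by omega, coeff_mul_X_pow] at h1
    exact hh0 (leadingCoeff_eq_zero.mp h1)
  · refine degree_lt_degree ?_
    rw [natDegree_mul hh0 (pow_ne_zero _ X_ne_zero), natDegree_X_pow]
    omega

variable {V : Type v} [AddCommGroup V] [Module F V] [FiniteDimensional F V]

theorem isTorsion_aeval' (f : End F V) : Module.IsTorsion F[X] (AEval' f) :=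
  AEval.isTorsion_of_finiteDimensional F V f

/-- Every endomorphism is self-adjoint for some non-degenerate symmetric form. -/
theorem exists_symm_form (f : End F V) :
    ∃ B : LinearMap.BilinForm F V, B.IsSymm ∧ B.Nondegenerate ∧
      ∀ u v, B (f u) v = B u (f v) := by
  classical
  obtain ⟨ι, _, p, hp, e, ⟨E₀⟩⟩ := Module.equiv_directSum_of_isTorsion (isTorsion_aeval' f)
  let E₁ := E₀.trans (DirectSum.linearEquivFunOnFintype F[X] ι fun i => F[X] ⧸ F[X] ∙ p i ^ e i)
  let E : V ≃ₗ[F] ∀ i, F[X] ⧸ Ideal.span {p i ^ e i} :=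
    (AEval'.of f).trans (E₁.restrictScalars F)
  have hE : ∀ v i, E (f v) i = Ideal.Quotient.mk (Ideal.span {p i ^ e i}) X * E v i := by
    intro v i
    show E₁ (AEval'.of f (f v)) i = _
    rw [← AEval'.X_smul_of, map_smul, Pi.smul_apply]
    show X • (E v i) = _
    obtain ⟨h, hh⟩ := Ideal.Quotient.mk_surjective (E v i)
    rw [← hh]
    rfl
  choose φ hφ using fun i => exists_frob (pow_ne_zero (e i) (hp i).ne_zero)
  let P : ∀ i, V →ₗ[F] F[X] ⧸ Ideal.span {p i ^ e i} := fun i =>
    (LinearMap.proj i).comp E.toLinearMap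
  let B : LinearMap.BilinForm F V :=
    ∑ i, ((LinearMap.mul F _).compl₁₂ (P i) (P i)).compr₂ (φ i)
  have hB : ∀ u v, B u v = ∑ i, φ i (E u i * E v i) := by
    intro u v
    simp [B, P, LinearMap.sum_apply]
  have hsymm : ∀ u v, B u v = B v u := fun u v => by simp only [hB, mul_comm]
  have hnd : ∀ u, (∀ v, B u v = 0) → u = 0 := by
    intro u hu
    refine E.injective (funext fun i => ?_)
    rw [map_zero, Pi.zero_apply]
    refine hφ i _ fun b => ?_
    have h := hu (E.symm (Pi.single i b))
    rw [hB, Finset.sum_eq_single i] at h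
    · simpa using h
    · intro j _ hji; simp [hji]
    · simp
  refine ⟨B, ⟨fun u v => hsymm u v⟩, ⟨hnd, fun v hv => hnd v fun u => by rw [hsymm]; exact hv u⟩,
    fun u v => ?_⟩
  simp only [hB, hE]
  exact Finset.sum_congr rfl fun i _ => by rw [mul_left_comm, mul_assoc]

/-- A matrix over a field is similar to its transpose. -/
theorem isConj_transpose {n : Type*} [Fintype n] [DecidableEq n] (A : Matrix n n F) :
    IsConj A A.transpose := by
  obtain ⟨B, -, hnd, hadj⟩ := exists_symm_form (Matrix.toLin' A)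
  set S := LinearMap.BilinForm.toMatrix' B with hS
  have hrel : A.transpose * S = S * A := by
    have h : B.compLeft (Matrix.toLin' A) = B.compRight (Matrix.toLin' A) :=
      LinearMap.ext₂ hadj
    have h2 := congrArg LinearMap.BilinForm.toMatrix' h
    rwa [LinearMap.BilinForm.toMatrix'_compLeft, LinearMap.BilinForm.toMatrix'_compRight,
      LinearMap.toMatrix'_toLin'] at h2
  have hdet : S.det ≠ 0 := by
    rw [← Matrix.nondegenerate_iff_det_ne_zero, hS,
      LinearMap.BilinForm.nondegenerate_toMatrix'_iff]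
    exact hnd
  exact ⟨Matrix.GeneralLinearGroup.mkOfDetNeZero S hdet, hrel.symm⟩

end Cfsg.Agent.KnownB
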