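import Mathlib

/-! Irreducible and semisimple elements: centralisers and determinants. -/

set_option autoImplicit false

namespace Cfsg.Agent.KnownB

open Module Polynomial
open scoped Matrix

universe u v

variable {F : Type u} [Field F] {V : Type v} [AddCommGroup V] [Module F V] [FiniteDimensional F V]

/-- An irreducible monic factor of the minimal polynomial has a non-zero kernel vector. -/
theorem exists_root_vector (T : End F V) {f : F[X]} (hf : f ∣ minpoly F T) (hfm : f.Monic)
    (hfi : Irreducible f) : ∃ v : V, v ≠ 0 ∧ aeval T f v = 0 := by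
  obtain ⟨g, hg⟩ := hf
  have hint : IsIntegral F T := Algebra.IsIntegral.isIntegral T
  have hg0 : g ≠ 0 := fun h => minpoly.ne_zero hint (by rw [hg, h, mul_zero])
  have hTg : aeval T g ≠ 0 := by
    intro h
    have h1 := natDegree_le_natDegree (minpoly.degree_le_of_ne_zero F T hg0 h)
    rw [hg, natDegree_mul hfm.ne_zero hg0] at h1
    have := hfi.natDegree_pos
    omega
  obtain ⟨w, hw⟩ : ∃ w, aeval T g w ≠ 0 := by
    by_contra h
    push Not at h
    exact hTg (LinearMap.ext h)
  refine ⟨aeval T g w, hw, ?_⟩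
  rw [← Module.End.mul_apply, ← map_mul, ← hg, minpoly.aeval, LinearMap.zero_apply]

/-- The orbit map at a kernel vector of an irreducible polynomial. -/
theorem exists_orbit_map (T : End F V) {f : F[X]} (hfi : Irreducible f) {v : V} (hv : v ≠ 0)
    (hfv : aeval T f v = 0) :
    ∃ ψ : AdjoinRoot f →ₗ[F] V, Function.Injective ψ ∧
      (∀ p, ψ (AdjoinRoot.mk f p) = aeval T p v) := by
  have : Fact (Irreducible f) := ⟨hfi⟩
  let L : Submodule F F[X] := (Ideal.span {f}).restrictScalars F
  let ψ₀ : F[X] →ₗ[F] V := (LinearMap.applyₗ v).comp (aeval T).toLinearMap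
  have hker : L ≤ LinearMap.ker ψ₀ := by
    intro p hp
    obtain ⟨c, rfl⟩ := Ideal.mem_span_singleton'.mp hp
    simp [ψ₀, hfv]
  let ψ : AdjoinRoot f →ₗ[F] V :=
    (L.liftQ ψ₀ hker).comp (Submodule.Quotient.restrictScalarsEquiv F (Ideal.span {f})).symm.toLinearMap
  have hψ : ∀ p, ψ (AdjoinRoot.mk f p) = aeval T p v := fun p => rfl
  refine ⟨ψ, (injective_iff_map_eq_zero ψ).mpr fun a ha => ?_, hψ⟩
  by_contra ha0
  obtain ⟨p, rfl⟩ := AdjoinRoot.mk_surjective a
  obtain ⟨b, hb⟩ := AdjoinRoot.mk_surjective ((AdjoinRoot.mk f p)⁻¹)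
  have h1 : ψ (AdjoinRoot.mk f (b * p)) = v := by
    rw [map_mul, hb, inv_mul_cancel₀ ha0, ← map_one (AdjoinRoot.mk f), hψ, map_one,
      Module.End.one_apply]
  rw [hψ, map_mul, Module.End.mul_apply, ← hψ p, ha, map_zero] at h1
  exact hv h1.symm

/-- If some element of `F[T]` is a field of full dimension, the commutant is that field. -/
theorem commutant_eq {n : ℕ} (M : Matrix (Fin n) (Fin n) F) {f : F[X]} (hfi : Irreducible f)
    (hdeg : f.natDegree = n) (hf : f ∣ minpoly F M) (hfm : f.Monic) :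
    ∃ φ : AdjoinRoot f →ₐ[F] Matrix (Fin n) (Fin n) F, Function.Injective φ ∧
      φ (AdjoinRoot.root f) = M ∧ ∀ C, Commute C M → ∃ a, φ a = C := by
  have : Fact (Irreducible f) := ⟨hfi⟩
  have hn : 0 < n := hdeg ▸ hfi.natDegree_pos
  have : NeZero n := ⟨hn.ne'⟩
  have hmin : minpoly F M = f := by
    refine eq_of_monic_of_dvd_of_natDegree_le hfm (minpoly.monic (Matrix.isIntegral M)) hf ?_
    rw [hdeg]
    calc (minpoly F M).natDegree ≤ M.charpoly.natDegree :=
          natDegree_le_of_dvd (Matrix.minpoly_dvd_charpoly M) M.charpoly_monic.ne_zero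
      _ = n := by rw [Matrix.charpoly_natDegree_eq_dim, Fintype.card_fin]
  let φ : AdjoinRoot f →ₐ[F] Matrix (Fin n) (Fin n) F :=
    Ideal.Quotient.liftₐ (Ideal.span {f}) (aeval M) fun x hx => by
      obtain ⟨c, rfl⟩ := Ideal.mem_span_singleton'.mp hx
      rw [map_mul, ← hmin, minpoly.aeval, mul_zero]
  have hroot : φ (AdjoinRoot.root f) = M := aeval_X M
  have hφinj : Function.Injective φ := φ.toRingHom.injective
  refine ⟨φ, hφinj, hroot, fun C hC => ?_⟩
  -- a cyclic vector
  let v : Fin n → F := Pi.single 0 1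
  let ev : AdjoinRoot f →ₗ[F] (Fin n → F) :=
    (((Matrix.mulVecBilin F F).flip v)).comp φ.toLinearMap
  have hev : ∀ a, ev a = φ a *ᵥ v := fun a => rfl
  have hinj : Function.Injective ev := (injective_iff_map_eq_zero ev).mpr fun a ha => by
    by_contra ha0
    have h : φ a⁻¹ *ᵥ (φ a *ᵥ v) = v := by
      rw [Matrix.mulVec_mulVec, ← map_mul, inv_mul_cancel₀ ha0, map_one, Matrix.one_mulVec]
    rw [← hev, ha, Matrix.mulVec_zero] at h
    exact one_ne_zero (α := F) (by simpa [v] using (congrFun h 0).symm)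
  have hfr : finrank F (AdjoinRoot f) = finrank F (Fin n → F) := by
    rw [(AdjoinRoot.powerBasis hfi.ne_zero).finrank, AdjoinRoot.powerBasis_dim, hdeg,
      Module.finrank_fin_fun]
  have : FiniteDimensional F (AdjoinRoot f) := (AdjoinRoot.powerBasis hfi.ne_zero).finite
  have hsurj := (LinearMap.injective_iff_surjective_of_finrank_eq_finrank hfr).mp hinj
  obtain ⟨a, ha⟩ := hsurj (C *ᵥ v)
  refine ⟨a, (Matrix.ext_of_mulVec_single fun i => ?_)⟩
  obtain ⟨b, hb⟩ := hsurj (Pi.single i 1)
  have hcomm : C * φ b = φ b * C := by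
    obtain ⟨p, rfl⟩ := AdjoinRoot.mk_surjective b
    rw [← AdjoinRoot.aeval_eq, ← aeval_algHom_apply, hroot]
    clear hb
    induction p using Polynomial.induction_on' with
    | add p q hp hq => rw [map_add, mul_add, add_mul, hp, hq]
    | monomial k r =>
      rw [aeval_monomial]
      exact ((Algebra.commute_algebraMap_right r C).mul_right (hC.pow_right k)).eq
  rw [← hb, hev, Matrix.mulVec_mulVec, Matrix.mulVec_mulVec, hcomm, ← map_mul, mul_comm a b,
    map_mul, ← Matrix.mulVec_mulVec, ← hev a, ha, Matrix.mulVec_mulVec]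

/-- The determinant is onto on the centraliser of a semisimple endomorphism. -/
theorem exists_det_commute [Finite F] [Nontrivial V] (T : End F V) (hss : T.IsSemisimple) {a : F}
    (ha : a ≠ 0) : ∃ C : V →ₗ[F] V, LinearMap.det C = a ∧ C * T = T * C := by
  classical
  have hint : IsIntegral F T := Algebra.IsIntegral.isIntegral T
  have hdeg : (minpoly F T).degree ≠ 0 := (minpoly.degree_pos hint).ne'
  obtain ⟨f, hfm, hfi, hf⟩ := exists_monic_irreducible_factor (minpoly F T)
    (fun hu => hdeg (degree_eq_zero_of_isUnit hu))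
  obtain ⟨v, hv, hfv⟩ := exists_root_vector T hf hfm hfi
  obtain ⟨ψ, hinj, hψ⟩ := exists_orbit_map T hfi hv hfv
  have : Fact (Irreducible f) := ⟨hfi⟩
  have : FiniteDimensional F (AdjoinRoot f) := (AdjoinRoot.powerBasis hfi.ne_zero).finite
  have : Finite (AdjoinRoot f) := Module.finite_of_finite F
  obtain ⟨c, hc⟩ := FiniteField.norm_surjective F (AdjoinRoot f) a
  set S := LinearMap.range ψ
  have hS : S ∈ Module.End.invtSubmodule T := by
    rw [Module.End.mem_invtSubmodule]
    rintro _ ⟨b, rfl⟩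
    obtain ⟨p, rfl⟩ := AdjoinRoot.mk_surjective b
    exact ⟨AdjoinRoot.mk f (X * p), by rw [hψ, hψ, map_mul, aeval_X, Module.End.mul_apply]⟩
  obtain ⟨U, hU, hcompl⟩ := Module.End.isSemisimple_iff.mp hss S hS
  let E : (AdjoinRoot f × U) ≃ₗ[F] V :=
    ((LinearEquiv.ofInjective ψ hinj).prodCongr (LinearEquiv.refl F U)).trans
      (Submodule.prodEquivOfIsCompl S U hcompl)
  have hE : ∀ x, E x = ψ x.1 + (x.2 : V) := fun x => rfl
  let μ : (AdjoinRoot f × U) →ₗ[F] (AdjoinRoot f × U) :=
    (LinearMap.mul F (AdjoinRoot f) c).prodMap LinearMap.id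
  refine ⟨E.toLinearMap.comp (μ.comp E.symm.toLinearMap), ?_, ?_⟩
  · rw [LinearMap.det_conj, LinearMap.det_prodMap, LinearMap.det_id, mul_one, ← hc, Algebra.norm_apply]
    rfl
  · refine LinearMap.ext fun w => ?_
    obtain ⟨⟨b, y⟩, rfl⟩ := E.surjective w
    obtain ⟨p, rfl⟩ := AdjoinRoot.mk_surjective b
    obtain ⟨q, rfl⟩ := AdjoinRoot.mk_surjective c
    have hTy : T y ∈ U := (Module.End.mem_invtSubmodule T).mp hU y.2
    have h1 : T (E (AdjoinRoot.mk f p, y)) = E (AdjoinRoot.mk f (X * p), ⟨T y, hTy⟩) := by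
      rw [hE, hE, map_add, hψ, hψ, map_mul, aeval_X, Module.End.mul_apply]
    simp only [Module.End.mul_apply, LinearMap.coe_comp, Function.comp_apply, LinearEquiv.coe_coe,
      h1, LinearEquiv.symm_apply_apply]
    simp only [μ, LinearMap.prodMap_apply, LinearMap.mul_apply', LinearMap.id_apply, hE, map_add]
    rw [← map_mul, ← map_mul, hψ, hψ, mul_left_comm q X p, map_mul (aeval T) X (q * p), aeval_X,
      Module.End.mul_apply]

end Cfsg.Agent.KnownB
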