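import Mathlib

/-! Nilpotent endomorphisms with a single Jordan block. -/

set_option autoImplicit false

namespace Cfsg.Agent.KnownB

open Module

variable {F V : Type*} [Field F] [AddCommGroup V] [Module F V] [FiniteDimensional F V]

theorem finrank_ker_pow_succ_le (N : Module.End F V) (k : ℕ) :
    finrank F (LinearMap.ker (N ^ (k + 1))) ≤
      finrank F (LinearMap.ker (N ^ k)) + finrank F (LinearMap.ker N) := by
  set f : LinearMap.ker (N ^ (k + 1)) →ₗ[F] V := (N ^ k).domRestrict _ with hf
  have h1 : LinearMap.range f ≤ LinearMap.ker N := by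
    rintro _ ⟨⟨x, hx⟩, rfl⟩
    rw [LinearMap.mem_ker] at hx ⊢
    rw [pow_succ', Module.End.mul_apply] at hx
    exact hx
  let g : LinearMap.ker f →ₗ[F] LinearMap.ker (N ^ k) :=
    LinearMap.codRestrict _ ((LinearMap.ker (N ^ (k + 1))).subtype.comp (LinearMap.ker f).subtype)
      fun x => x.2
  have h2 : finrank F (LinearMap.ker f) ≤ finrank F (LinearMap.ker (N ^ k)) :=
    LinearMap.finrank_le_finrank_of_injective (f := g) fun x y h =>
      Subtype.ext (Subtype.ext (congrArg Subtype.val h :))
  have h3 := LinearMap.finrank_range_add_finrank_ker f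
  have h4 := Submodule.finrank_mono h1
  omega

/-- With a one-dimensional kernel the kernels of the powers form a full chain. -/
theorem finrank_ker_pow (N : Module.End F V) {n : ℕ} (hn : finrank F V = n) (hnil : N ^ n = 0)
    (h1 : finrank F (LinearMap.ker N) ≤ 1) {k : ℕ} (hk : k ≤ n) :
    finrank F (LinearMap.ker (N ^ k)) = k := by
  have hup : ∀ j, finrank F (LinearMap.ker (N ^ j)) ≤ j := by
    intro j
    induction j with
    | zero => simp [Module.End.one_eq_id]
    | succ j ih => have := finrank_ker_pow_succ_le N j; omega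
  refine le_antisymm (hup k) ?_
  have hdown : ∀ j, finrank F (LinearMap.ker (N ^ (k + j))) ≤
      finrank F (LinearMap.ker (N ^ k)) + j := by
    intro j
    induction j with
    | zero => simp
    | succ j ih => have := finrank_ker_pow_succ_le N (k + j); rw [← add_assoc]; omega
  have h := hdown (n - k)
  rw [show k + (n - k) = n by omega, hnil, LinearMap.ker_zero, finrank_top, hn] at h
  omega

/-- The invariant subspaces are the kernels of the powers. -/
theorem eq_ker_pow (N : Module.End F V) {n : ℕ} (hn : finrank F V = n) (hnil : N ^ n = 0)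
    (h1 : finrank F (LinearMap.ker N) ≤ 1) (W : Submodule F V) (hW : ∀ v ∈ W, N v ∈ W) :
    W = LinearMap.ker (N ^ finrank F W) := by
  refine Submodule.eq_of_le_of_finrank_eq ?_
    (finrank_ker_pow N hn hnil h1 (hn ▸ Submodule.finrank_le W)).symm
  have hNW : IsNilpotent (N.restrict hW) := by
    refine ⟨n, ?_⟩
    apply LinearMap.ext
    intro x
    apply Subtype.ext
    rw [Module.End.pow_restrict n, LinearMap.coe_restrict_apply, hnil]
    rfl
  intro w hw
  obtain ⟨i, hi⟩ := hNW
  have h2 : N.restrict hW ^ finrank F W = 0 := by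
    have h3 := Module.End.ker_pow_le_ker_pow_finrank (N.restrict hW) i
    rw [hi, LinearMap.ker_zero, top_le_iff, LinearMap.ker_eq_top] at h3
    exact h3
  have := congrArg Subtype.val (LinearMap.congr_fun h2 ⟨w, hw⟩)
  rw [Module.End.pow_restrict, LinearMap.coe_restrict_apply] at this
  exact this

theorem range_pow_eq_ker_pow (N : Module.End F V) {n : ℕ} (hn : finrank F V = n) (hnil : N ^ n = 0)
    (h1 : finrank F (LinearMap.ker N) ≤ 1) {k : ℕ} (hk : k ≤ n) :
    LinearMap.range (N ^ k) = LinearMap.ker (N ^ (n - k)) := by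
  refine Submodule.eq_of_le_of_finrank_eq ?_ ?_
  · rintro _ ⟨x, rfl⟩
    rw [LinearMap.mem_ker, ← Module.End.mul_apply, ← pow_add, show n - k + k = n by omega, hnil]
    rfl
  · have h := LinearMap.finrank_range_add_finrank_ker (N ^ k)
    rw [finrank_ker_pow N hn hnil h1 hk, hn] at h
    rw [finrank_ker_pow N hn hnil h1 (Nat.sub_le n k)]
    omega

/-- A nilpotent endomorphism and a vector killed only by the full power span a basis. -/
theorem exists_pow_basis (N : Module.End F V) {n : ℕ} (hn : finrank F V = n) (hnil : N ^ n = 0)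
    {v : V} (hv : (N ^ (n - 1)) v ≠ 0) :
    ∃ b : Module.Basis (Fin n) F V, ∀ i : Fin n, b i = (N ^ (i : ℕ)) v := by
  have hn0 : 0 < n := by
    by_contra h
    have : n = 0 := by omega
    subst this
    exact hv (by rw [hnil]; rfl)
  have hli : LinearIndependent F (fun i : Fin n => (N ^ (i : ℕ)) v) := by
    rw [Fintype.linearIndependent_iff]
    intro c hc
    classical
    by_contra hne
    push Not at hne
    let s := Finset.univ.filter fun i => c i ≠ 0
    have hs : s.Nonempty := by
      obtain ⟨i, hi⟩ := hne
      exact ⟨i, Finset.mem_filter.mpr ⟨Finset.mem_univ _, hi⟩⟩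
    set j := s.min' hs with hj
    have hcj : c j ≠ 0 := (Finset.mem_filter.mp (s.min'_mem hs)).2
    have h2 := congrArg (⇑(N ^ (n - 1 - (j : ℕ)))) hc
    rw [map_sum, map_zero, Finset.sum_eq_single j] at h2
    · rw [map_smul, ← Module.End.mul_apply, ← pow_add,
        show n - 1 - (j : ℕ) + j = n - 1 by omega] at h2
      exact hv ((smul_eq_zero.mp h2).resolve_left hcj)
    · intro i _ hij
      rcases lt_or_gt_of_ne hij with h | h
      · have : c i = 0 := by
          by_contra hci
          exact absurd (s.min'_le i (Finset.mem_filter.mpr ⟨Finset.mem_univ _, hci⟩))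
            (not_le.mpr h)
        rw [this, zero_smul, map_zero]
      · rw [map_smul, ← Module.End.mul_apply, ← pow_add]
        have h4 : N ^ (n - 1 - (j : ℕ) + i) = 0 := by
          rw [show n - 1 - (j : ℕ) + (i : ℕ) = n + ((i : ℕ) - j - 1) by omega, pow_add, hnil,
            zero_mul]
        rw [h4, LinearMap.zero_apply, smul_zero]
    · simp
  haveI : Nonempty (Fin n) := ⟨⟨0, hn0⟩⟩
  exact ⟨basisOfLinearIndependentOfCardEqFinrank hli (by simp [hn]), fun i => by simp⟩

end Cfsg.Agent.KnownB
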