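import Mathlib

/-! The projective semilinear group contains no sharply 2-transitive set (counting modulo the
characteristic, after Müller and Nagy). -/

set_option autoImplicit false

namespace Cfsg.Agent.KnownB.SharpTwo

open Module

universe u

variable {F : Type u} [Field F] [Finite F]

theorem dvd_card_of_pos {p : ℕ} [Fact p.Prime] [CharP F p] {V : Type*} [AddCommGroup V] [Module F V]
    [Finite V] (h : 0 < finrank F V) : p ∣ Nat.card V := by
  letI := Fintype.ofFinite F
  obtain ⟨e, -, he⟩ := FiniteField.card F p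
  rw [Module.natCard_eq_pow_finrank (K := F) (V := V), Nat.card_eq_fintype_card, he, ← pow_mul]
  exact dvd_pow_self p (Nat.mul_pos e.pos h).ne'

theorem no_sharply_two (n : ℕ) (hn : 3 ≤ n)
    (S : Set (Equiv.Perm (Projectivization F (Fin n → F))))
    (hS : ∀ s ∈ S, ∃ (σ : F ≃+* F) (f : (Fin n → F) →ₛₗ[(σ : F →+* F)] (Fin n → F))
      (hf : Function.Injective f), ∀ x, s x = Projectivization.map f hf x) :
    ¬ (∀ a b c d : Projectivization F (Fin n → F), a ≠ b → c ≠ d →
        ∃! s, s ∈ S ∧ s a = c ∧ s b = d) := by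
  classical
  intro h
  obtain ⟨p, hp⟩ := CharP.exists F
  haveI : Fact p.Prime := ⟨CharP.char_is_prime F p⟩
  letI := Fintype.ofFinite F
  haveI : Finite (Projectivization F (Fin n → F)) := Quotient.finite _
  letI := Fintype.ofFinite (Equiv.Perm (Projectivization F (Fin n → F)))
  let i0 : Fin n := ⟨0, by omega⟩
  let i1 : Fin n := ⟨1, by omega⟩
  let i2 : Fin n := ⟨2, by omega⟩
  let e0 : Fin n → F := Pi.single i0 1
  have he0 : e0 ≠ 0 := fun h => by simpa [e0] using congrFun h i0
  set a := Projectivization.mk F e0 he0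
  let U : Submodule F (Fin n → F) := LinearMap.ker (LinearMap.proj i0 : (Fin n → F) →ₗ[F] F)
  let W : Submodule F (Fin n → F) :=
    Submodule.span F (Set.range ![(Pi.single i1 1 : Fin n → F), Pi.single i2 1])
  have hne01 : i0 ≠ i1 := by simp [i0, i1]
  have hne02 : i0 ≠ i2 := by simp [i0, i2]
  have hne12 : i1 ≠ i2 := by simp [i1, i2]
  have hW0 : ∀ w ∈ W, w i0 = 0 := fun w hw => by
    induction hw using Submodule.span_induction with
    | mem x hx =>
      obtain ⟨j, rfl⟩ := hx
      fin_cases j <;> simp [Pi.single_eq_of_ne hne01, Pi.single_eq_of_ne hne02]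
    | zero => rfl
    | add x y _ _ hx hy => simp [hx, hy]
    | smul c x _ hx => simp [hx]
  have hW2 : finrank F W = 2 := by
    show finrank F (Submodule.span F _) = 2
    rw [finrank_span_eq_card]
    · simp
    · refine LinearIndependent.pair_iff.mpr fun s t hst => ⟨?_, ?_⟩
      · simpa [Pi.single_eq_of_ne hne12] using congrFun hst i1
      · simpa [Pi.single_eq_of_ne hne12.symm] using congrFun hst i2
  have hU : finrank F U + 1 = n := by
    have h := LinearMap.finrank_range_add_finrank_ker (LinearMap.proj i0 : (Fin n → F) →ₗ[F] F)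
    rw [LinearMap.range_eq_top.mpr (fun c => ⟨Pi.single i0 c, by simp⟩), finrank_top,
      Module.finrank_self, Module.finrank_fintype_fun_eq_card, Fintype.card_fin] at h
    show finrank F (LinearMap.ker _) + 1 = n
    omega
  let Sa : Finset (Equiv.Perm (Projectivization F (Fin n → F))) :=
    Finset.univ.filter fun s => s ∈ S ∧ s a = a
  let A : Submodule F (Fin n → F) := Submodule.span F {e0}
  let C : Finset (Fin n → F) := Finset.univ.filter fun v => v ∉ U ∧ v ∉ A
  let Wz : Finset (Fin n → F) := Finset.univ.filter fun w => w ∈ W ∧ w ≠ 0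
  let R : Equiv.Perm (Projectivization F (Fin n → F)) → (Fin n → F) × (Fin n → F) → Prop :=
    fun s vw => ∀ (hv : vw.1 ≠ 0) (hw : vw.2 ≠ 0),
      s (Projectivization.mk F vw.1 hv) = Projectivization.mk F vw.2 hw
  have hC0 : ∀ v ∈ C, v ≠ 0 := fun v hv h0 =>
    (Finset.mem_filter.mp hv).2.1 (h0 ▸ U.zero_mem)
  -- each pair is joined by exactly one member fixing `a`
  have hone : ∀ vw ∈ C ×ˢ Wz, (Sa.filter fun s => R s vw).card = 1 := by
    rintro ⟨v, w⟩ hvw
    obtain ⟨hv, hw⟩ := Finset.mem_product.mp hvw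
    obtain ⟨hvU, hvA⟩ := (Finset.mem_filter.mp hv).2
    obtain ⟨hwW, hw0⟩ := (Finset.mem_filter.mp hw).2
    have hab : a ≠ Projectivization.mk F v (hC0 v hv) := fun e => by
      obtain ⟨c, hc⟩ := (Projectivization.mk_eq_mk_iff' F _ _ _ _).mp e.symm
      exact hvA (hc ▸ Submodule.smul_mem _ c (Submodule.mem_span_singleton_self _))
    have hcd : a ≠ Projectivization.mk F w hw0 := fun e => by
      obtain ⟨c, hc⟩ := (Projectivization.mk_eq_mk_iff' F _ _ _ _).mp e
      have h1 := congrFun hc i0
      simp [hW0 w hwW, e0] at h1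
    obtain ⟨s, ⟨hsS, hsa, hsb⟩, huniq⟩ := h a _ a _ hab hcd
    refine Finset.card_eq_one.mpr ⟨s, Finset.ext fun t => ?_⟩
    simp only [Finset.mem_filter, Finset.mem_univ, true_and, Finset.mem_singleton, Sa, R]
    constructor
    · rintro ⟨⟨htS, hta⟩, ht⟩
      exact huniq t ⟨htS, hta, ht _ _⟩
    · rintro rfl
      exact ⟨⟨hsS, hsa⟩, fun _ _ => hsb⟩
  have hcount := Finset.sum_card_bipartiteAbove_eq_sum_card_bipartiteBelow
    (s := Sa) (t := C ×ˢ Wz) (r := R)
  simp only [Finset.bipartiteAbove, Finset.bipartiteBelow] at hcount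
  rw [Finset.sum_congr rfl hone, Finset.sum_const, smul_eq_mul, mul_one, Finset.card_product] at hcount
  -- each member contributes a multiple of the characteristic
  have hdvd : ∀ s ∈ Sa, p ∣ ((C ×ˢ Wz).filter fun vw => R s vw).card := by
    intro s hs
    obtain ⟨hsS, hsa⟩ := (Finset.mem_filter.mp hs).2
    obtain ⟨σ, f, hf, hsf⟩ := hS s hsS
    have hsurj : Function.Surjective f := Finite.surjective_of_injective hf
    let W' : Submodule F (Fin n → F) := W.comap f
    have hW' : finrank F W' = 2 := by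
      have hcard : Nat.card W' = Nat.card W := Nat.card_congr
        ((Equiv.ofBijective f ⟨hf, hsurj⟩).subtypeEquiv fun x => Iff.rfl)
      rw [Module.natCard_eq_pow_finrank (K := F) (V := ↥W'),
        Module.natCard_eq_pow_finrank (K := F) (V := ↥W), hW2] at hcard
      exact Nat.pow_right_injective Finite.one_lt_card hcard
    have hfe : ∃ c : F, f e0 = c • e0 := by
      have e := hsf a
      rw [hsa, Projectivization.map_mk] at e
      obtain ⟨c, hc⟩ := (Projectivization.mk_eq_mk_iff' F _ _ _ _).mp e.symm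
      exact ⟨c, hc.symm⟩
    let X : Finset (Fin n → F) := Finset.univ.filter fun v => v ∈ W' ∧ v ∉ U
    have hXC : ∀ v ∈ X, v ∈ C ∧ f v ∈ Wz := by
      intro v hv
      obtain ⟨hvW, hvU⟩ := (Finset.mem_filter.mp hv).2
      have hv0 : v ≠ 0 := fun h0 => hvU (h0 ▸ U.zero_mem)
      refine ⟨Finset.mem_filter.mpr ⟨Finset.mem_univ _, hvU, fun hA => ?_⟩,
        Finset.mem_filter.mpr ⟨Finset.mem_univ _, hvW, fun h0 => hv0 (hf (h0.trans (map_zero f).symm))⟩⟩
      obtain ⟨c, rfl⟩ := Submodule.mem_span_singleton.mp hA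
      obtain ⟨d, hd⟩ := hfe
      have h1 := hW0 _ hvW
      rw [LinearMap.map_smulₛₗ, hd] at h1
      have hd0 : d ≠ 0 := fun hd' => he0 (hf (by rw [hd, hd', zero_smul, map_zero]))
      simp [e0] at h1
      rcases h1 with h1 | h1
      · exact hv0 (by rw [h1, zero_smul])
      · exact hd0 h1
    have hset : ((C ×ˢ Wz).filter fun vw => R s vw) =
        (X ×ˢ (Finset.univ : Finset Fˣ)).image fun vc => (vc.1, (vc.2 : F) • f vc.1) := by
      ext ⟨v, w⟩
      simp only [Finset.mem_filter, Finset.mem_product, Finset.mem_image, Finset.mem_univ, and_true,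
        Prod.exists, Prod.mk.injEq]
      constructor
      · rintro ⟨⟨hv, hw⟩, hR⟩
        have hv0 := hC0 v hv
        obtain ⟨hwW, hw0⟩ := (Finset.mem_filter.mp hw).2
        have e := hR hv0 hw0
        rw [hsf, Projectivization.map_mk] at e
        obtain ⟨c, hc⟩ := (Projectivization.mk_eq_mk_iff' F _ _ _ _).mp e.symm
        have hc0 : c ≠ 0 := fun h0 => hw0 (hc.symm.trans (by rw [h0, zero_smul]))
        refine ⟨v, Units.mk0 c hc0, Finset.mem_filter.mpr ⟨Finset.mem_univ _, ?_,
          (Finset.mem_filter.mp hv).2.1⟩, rfl, hc⟩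
        show f v ∈ W
        exact (Submodule.smul_mem_iff W hc0).mp (hc ▸ hwW)
      · rintro ⟨v', c, hv', rfl, rfl⟩
        obtain ⟨hvC, hfv⟩ := hXC v' hv'
        obtain ⟨hfW, hf0⟩ := (Finset.mem_filter.mp hfv).2
        refine ⟨⟨hvC, Finset.mem_filter.mpr ⟨Finset.mem_univ _, W.smul_mem _ hfW,
          smul_ne_zero c.ne_zero hf0⟩⟩, fun _ _ => ?_⟩
        rw [hsf, Projectivization.map_mk]
        exact (Projectivization.mk_eq_mk_iff' F _ _ _ _).mpr
          ⟨(c⁻¹ : Fˣ), by simp [smul_smul]⟩
    rw [hset, Finset.card_image_of_injOn, Finset.card_product]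
    · refine Dvd.dvd.mul_right ?_ _
      have hX : X.card + Nat.card ↥(W' ⊓ U) = Nat.card W' := by
        rw [Nat.card_eq_fintype_card, Nat.card_eq_fintype_card, Fintype.card_subtype,
          Fintype.card_subtype, ← Finset.card_union_of_disjoint]
        · congr 1
          ext v
          simp only [X, Finset.mem_union, Finset.mem_filter, Finset.mem_univ, true_and,
            Submodule.mem_inf]
          tauto
        · exact Finset.disjoint_left.mpr fun v hv hv' => (Finset.mem_filter.mp hv).2.2
            ((Submodule.mem_inf.mp (Finset.mem_filter.mp hv').2).2)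
      refine (Nat.dvd_add_left (dvd_card_of_pos (F := F) ?_)).mp
        (hX ▸ dvd_card_of_pos (F := F) (by omega))
      have h4 := Submodule.finrank_sup_add_finrank_inf_eq W' U
      have h5 : finrank F ↥(W' ⊔ U) ≤ n := by
        simpa using Submodule.finrank_le (W' ⊔ U)
      omega
    · rintro ⟨v, c⟩ hx ⟨v', c'⟩ - e
      obtain ⟨rfl, e2⟩ := Prod.mk.inj e
      have hf0 := (Finset.mem_filter.mp (hXC v (Finset.mem_product.mp hx).1).2).2.2
      exact Prod.ext rfl (Units.ext (smul_left_injective F hf0 e2))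
  have h0 : p ∣ C.card * Wz.card := hcount ▸ Finset.dvd_sum hdvd
  -- but neither factor is divisible by it
  have hone' : ∀ V' : Submodule F (Fin n → F), 0 < finrank F V' →
      ¬ p ∣ (Finset.univ.filter fun w => w ∈ V' ∧ w ≠ 0).card := by
    intro V' hV' hd
    have hc : (Finset.univ.filter fun w => w ∈ V' ∧ w ≠ 0).card + 1 = Nat.card V' := by
      have e : (Finset.univ.filter fun w => w ∈ V' ∧ w ≠ 0) =
          (Finset.univ.filter fun w => w ∈ V').erase 0 := by
        ext w; simp [and_comm]
      rw [Nat.card_eq_fintype_card, Fintype.card_subtype, e,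
        Finset.card_erase_add_one (by simp)]
    have h' : p ∣ 1 := (Nat.dvd_add_right hd).mp (hc ▸ dvd_card_of_pos (F := F) hV')
    exact (Fact.out : p.Prime).ne_one (Nat.dvd_one.mp h')
  rcases (Fact.out : p.Prime).dvd_mul.mp h0 with hd | hd
  swap
  · exact hone' W (by omega) hd
  refine hone' A (by
    show 0 < finrank F (Submodule.span F {e0})
    rw [finrank_span_singleton he0]; exact one_pos) ?_
  have hAU : ∀ v, v ∈ A → v ≠ 0 → v ∉ U := by
    intro v hv hv0 hvU
    obtain ⟨c, rfl⟩ := Submodule.mem_span_singleton.mp hv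
    have : c = 0 := by simpa [U, e0] using hvU
    exact hv0 (by rw [this, zero_smul])
  have hsum : C.card + (Finset.univ.filter fun w => w ∈ A ∧ w ≠ 0).card + Nat.card U =
      Nat.card (Fin n → F) := by
    rw [Nat.card_eq_fintype_card, Nat.card_eq_fintype_card, Fintype.card_subtype,
      ← Finset.card_union_of_disjoint, ← Finset.card_union_of_disjoint, ← Finset.card_univ]
    · congr 1
      ext v
      simp only [C, Finset.mem_union, Finset.mem_filter, Finset.mem_univ, true_and, iff_true]
      by_cases hU' : v ∈ U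
      · exact Or.inr hU'
      · by_cases hA : v ∈ A
        · exact Or.inl (Or.inr ⟨hA, fun h0 => hU' (h0 ▸ U.zero_mem)⟩)
        · exact Or.inl (Or.inl ⟨hU', hA⟩)
    · refine Finset.disjoint_left.mpr fun v hv hv' => ?_
      have hvU := (Finset.mem_filter.mp hv').2
      rcases Finset.mem_union.mp hv with h' | h'
      · exact (Finset.mem_filter.mp h').2.1 hvU
      · exact hAU v (Finset.mem_filter.mp h').2.1 (Finset.mem_filter.mp h').2.2 hvU
    · exact Finset.disjoint_left.mpr fun v hv hv' => (Finset.mem_filter.mp hv).2.2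
        (Finset.mem_filter.mp hv').2.1
  have h1 : p ∣ C.card + (Finset.univ.filter fun w => w ∈ A ∧ w ≠ 0).card :=
    (Nat.dvd_add_left (dvd_card_of_pos (F := F) (by omega))).mp
      (hsum ▸ dvd_card_of_pos (F := F)
        (by rw [Module.finrank_fintype_fun_eq_card, Fintype.card_fin]; omega))
  exact (Nat.dvd_add_right hd).mp h1

end Cfsg.Agent.KnownB.SharpTwo
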