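import Mathlib

/-! Telescoping identities for twisted norms `g σ(g) ⋯ σ^{d-1}(g)`. -/

set_option autoImplicit false

namespace Cfsg.Agent.KnownB

variable {X : Type*} [Group X] (σ : MulAut X)

theorem mem_fix_iff (τ : MulAut X) (x : X) :
    x ∈ (MulEquiv.toMonoidHom τ).eqLocus (MonoidHom.id X) ↔ τ x = x := Iff.rfl

theorem twisted_norm_telescope (a : X) (d : ℕ) :
    ((List.range d).map (fun i => (σ ^ i) (a * (σ a)⁻¹))).prod = a * ((σ ^ d) a)⁻¹ := by
  induction d with
  | zero => simp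
  | succ d ih =>
    rw [List.range_succ, List.map_append, List.prod_append, ih]
    simp only [List.map_cons, List.map_nil, List.prod_cons, List.prod_nil, mul_one, map_mul,
      map_inv, ← MulAut.mul_apply, ← pow_succ]
    group

theorem pow_apply_comm (i : ℕ) (x : X) : (σ ^ i) (σ x) = σ ((σ ^ i) x) := by
  rw [← MulAut.mul_apply, ← MulAut.mul_apply, ← pow_succ, ← pow_succ']

theorem pow_apply_fixed {x : X} (h : σ x = x) (i : ℕ) : (σ ^ i) x = x := by
  induction i with
  | zero => rfl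
  | succ i ih => rw [pow_succ, MulAut.mul_apply, h, ih]

/-- The descent element `σ^e(a)⁻¹ a` is fixed by `σ` when `a σ(a)⁻¹` is fixed by `σ^e`. -/
theorem descent_fixed {e : ℕ} {a : X} (hg : (σ ^ e) (a * (σ a)⁻¹) = a * (σ a)⁻¹) :
    σ (((σ ^ e) a)⁻¹ * a) = ((σ ^ e) a)⁻¹ * a := by
  have hg' := hg
  rw [map_mul, map_inv, pow_apply_comm] at hg'
  have h2 : σ ((σ ^ e) a) = σ a * a⁻¹ * (σ ^ e) a := by
    have := congrArg (fun y => y⁻¹ * (σ ^ e) a) hg'
    simpa [mul_assoc] using this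
  rw [map_mul, map_inv, h2]
  group

end Cfsg.Agent.KnownB
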